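import Cfsg.Agent.Lib.Helper35.ONNOrd.U2.Data

set_option Elab.async false

namespace Cfsg.Agent.Lib.Helper35.ONNOrd.U2

open Cfsg.Agent.Lib.Helper35

theorem s0c0 : allBelow (fun k => fs0 (Nat.add (Nat.succ 0) k)) 4 = true := by decide +kernel
theorem s0u0 : ∀ v, 1 ≤ v → v ≤ 4 → fs0 v = true := slots_step fs0 0 4 4 (slots_zero fs0) s0c0 rfl
theorem s1c0 : allBelow (fun k => fs1 (Nat.add (Nat.succ 0) k)) 4 = true := by decide +kernel
theorem s1u0 : ∀ v, 1 ≤ v → v ≤ 4 → fs1 v = true := slots_step fs1 0 4 4 (slots_zero fs1) s1c0 rfl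
theorem s2c0 : allBelow (fun k => fs2 (Nat.add (Nat.succ 0) k)) 4 = true := by decide +kernel
theorem s2u0 : ∀ v, 1 ≤ v → v ≤ 4 → fs2 v = true := slots_step fs2 0 4 4 (slots_zero fs2) s2c0 rfl
theorem s3c0 : allBelow (fun k => fs3 (Nat.add (Nat.succ 0) k)) 4 = true := by decide +kernel
theorem s3u0 : ∀ v, 1 ≤ v → v ≤ 4 → fs3 v = true := slots_step fs3 0 4 4 (slots_zero fs3) s3c0 rfl
theorem gz : countBelow gl 0 = 0 := rfl
theorem gk0 : countBelow (fun k => gl (Nat.add 0 k)) 4 = 4 := by decide +kernel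
theorem gn0 : countBelow gl 4 = 4 := countBelow_step gl 0 4 4 0 4 4 gz gk0 rfl rfl

end Cfsg.Agent.Lib.Helper35.ONNOrd.U2
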